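import Cfsg.Agent.Hz.C
import Cfsg.Agent.H2.PComp
import Cfsg.Agent.H5.More

/-! Principal blocks all of whose characters are linear. -/

set_option autoImplicit false
set_option linter.unusedSectionVars false
set_option linter.style.haveILetI false

namespace Cfsg.Agent.Hz

open Cfsg Cfsg.Agent.H3 Cfsg.Agent.H5 Subgroup
open scoped ComplexConjugate commutatorElement

variable {M : Ideal AlgInt} [hMm : M.IsMaximal] {G : Type*} [Group G] [Finite G]
  {p : ℕ} [hp : Fact p.Prime] [CharP (Res M) p]

/-- An element in the kernel of all members of the principal block is `p`-regular. -/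
theorem not_dvd_orderOf_of_ker {g : G}
    (h : ∀ χ ∈ principalBlock M G, (χ : G → ℂ) g = (χ : G → ℂ) 1) : ¬p ∣ orderOf g := by
  classical
  intro h1
  have h2 := (IsPBlock.isUnion (isPBlock_principalBlock (M := M) (G := G))).weak_orthogonal'
    (p := p) not_dvd_orderOf_one h1
  rw [Finset.sum_congr rfl (g := fun χ : IrrCharacter G => ((charDegree χ.1 ^ 2 : ℕ) : ℂ))
    fun χ hχ => by
      rw [h χ (Finset.mem_filter.1 hχ).2, χ.2.isCharacter.conj_apply_one, ← χ.2.cast_charDegree]
      push_cast; ring, ← Nat.cast_sum, Nat.cast_eq_zero, Finset.sum_eq_zero_iff] at h2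
  have h3 := h2 (irrOne G) (by simpa using irrOne_mem_principalBlock)
  rw [charDegree_irrOne] at h3
  exact one_ne_zero h3

theorem not_dvd_card_commutator_of_linear
    (h : ∀ χ ∈ principalBlock M G, (χ : G → ℂ) 1 = 1) : ¬p ∣ Nat.card (commutator G) := by
  intro h1
  obtain ⟨x, hx⟩ := exists_prime_orderOf_dvd_card' (G := commutator G) p h1
  refine not_dvd_orderOf_of_ker (M := M) (p := p) (g := (x : G)) (fun χ hχ => ?_)
    (by rw [orderOf_coe, hx])
  obtain ⟨l, hl⟩ := χ.2.isCharacter.exists_unitsHom (h χ hχ)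
  have := Abelianization.commutator_subset_ker l x.2
  rw [MonoidHom.mem_ker] at this
  simp [hl, this]

omit hMm in
theorem of_not_dvd_card_commutator (h : ¬p ∣ Nat.card (commutator G)) :
    HasNormalPComplement p G ∧ ∀ P : Sylow p G, IsMulCommutative (P : Subgroup G) := by
  refine ⟨H2.hasNormalPComplement_of_quotient _ h ?_, fun P => ⟨⟨fun a b => Subtype.ext ?_⟩⟩⟩
  · obtain ⟨Q⟩ : Nonempty (Sylow p (G ⧸ commutator G)) := inferInstance
    refine H2.hasNormalPComplement_of_controls_fusion Q fun x _ g _ => ⟨1, one_mem _, ?_⟩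
    obtain ⟨x, rfl⟩ := QuotientGroup.mk_surjective x
    obtain ⟨g, rfl⟩ := QuotientGroup.mk_surjective g
    rw [one_mul, inv_one, mul_one, eq_comm, ← mul_inv_eq_one]
    exact (QuotientGroup.eq_one_iff ⁅g, x⁆).2 (commutator_mem_commutator (mem_top _) (mem_top _))
  · have h1 : ⁅(a : G), (b : G)⁆ ∈ (P : Subgroup G) := (⁅a, b⁆ : (P : Subgroup G)).2
    have h2 : ⁅(a : G), (b : G)⁆ ∈ commutator G :=
      commutator_mem_commutator (mem_top _) (mem_top _)
    exact commutatorElement_eq_one_iff_mul_comm.1 (eq_one_of_pElt_of_pReg (isPElt_of_mem P.2 h1)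
      fun e => h (e.trans (orderOf_dvd_natCard _ h2)))

omit hMm in
theorem vanishing_main (h : ∀ x : G, (∃ χ : IrrCharacter G, (χ : G → ℂ) x = 0) →
    ¬p ∣ (centralizer ({x} : Set G)).index) :
    HasNormalPComplement p G ∧ ∀ P : Sylow p G, IsMulCommutative (P : Subgroup G) := by
  obtain ⟨M, hM⟩ := H5.exists_isPModular p
  have := hM.2.1
  have := charP_res hM
  refine of_not_dvd_card_commutator (not_dvd_card_commutator_of_linear (M := M) fun χ hχ => ?_)
  by_contra h1
  obtain ⟨g, hg⟩ := χ.2.exists_eq_zero h1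
  exact apply_ne_zero_of_mem_principalBlock hχ (h g ⟨χ, hg⟩) hg

end Cfsg.Agent.Hz
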